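import Cfsg.Agent.Lib.H34.TCO7D.Chk
set_option autoImplicit false
set_option maxRecDepth 100000
set_option linter.all false
namespace H34.TCO7D
open H35.TC
section
variable {G : Type} [Group G] {g : Lt → G} {H : Subgroup G}
/-- the points of the nodes -/
noncomputable def cP (g : Lt → G) (H : Subgroup G) : ℕ → G ⧸ H := cc (fa g) lt P ((1 : G) : G ⧸ H)
theorem dp_b_0_s (hinv : ∀ x, g (inv x) = (g x)⁻¹) (hr : ∀ r ∈ rels, (r.map g).prod = 1) (hH : ∀ r ∈ subs, (r.map g).prod ∈ H)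
    (j u : ℕ) (hu : u < M) (h : dp_b_0 j u = true) : Good (fa g) T MG M (cP g H) Lt.b u := by
  unfold dp_b_0 at h
  rcases brec_true h with h | h
  · exact lF_good (T := T) (x := Lt.b) (by decide) [Lt.h, Lt.b, Lt.w, Lt.h] (hole_rel hinv hr (by decide +kernel)) h
  · exact lF_good (T := T) (x := Lt.b) (by decide) [Lt.w, Lt.i, Lt.b, Lt.i] (hole_rel hinv hr (by decide +kernel)) h
theorem dp_b_1_s (hinv : ∀ x, g (inv x) = (g x)⁻¹) (hr : ∀ r ∈ rels, (r.map g).prod = 1) (hH : ∀ r ∈ subs, (r.map g).prod ∈ H)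
    (j u : ℕ) (hu : u < M) (h : dp_b_1 j u = true) : Good (fa g) T MG M (cP g H) Lt.b u := by
  unfold dp_b_1 at h
  rcases brec_true h with h | h
  · exact lDef_good (T := T) (x := Lt.b) (by decide) rfl h
  · exact lPar_good (T := T) (x := Lt.b) (x' := Lt.b) (by decide) rfl (inv_rel hinv _ _ rfl) h
theorem dp_b_2_s (hinv : ∀ x, g (inv x) = (g x)⁻¹) (hr : ∀ r ∈ rels, (r.map g).prod = 1) (hH : ∀ r ∈ subs, (r.map g).prod ∈ H)
    (j u : ℕ) (hu : u < M) (h : dp_b_2 j u = true) : Good (fa g) T MG M (cP g H) Lt.b u := by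
  unfold dp_b_2 at h
  rcases brec_true h with h | h
  · exact lF_good (T := T) (x := Lt.b) (by decide) [Lt.i, Lt.b, Lt.w, Lt.i] (hole_rel hinv hr (by decide +kernel)) h
  · exact lF_good (T := T) (x := Lt.b) (by decide) [Lt.d, Lt.b, Lt.w, Lt.d] (hole_rel hinv hr (by decide +kernel)) h
theorem dp_b_3_s (hinv : ∀ x, g (inv x) = (g x)⁻¹) (hr : ∀ r ∈ rels, (r.map g).prod = 1) (hH : ∀ r ∈ subs, (r.map g).prod ∈ H)
    (j u : ℕ) (hu : u < M) (h : dp_b_3 j u = true) : Good (fa g) T MG M (cP g H) Lt.b u := by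
  unfold dp_b_3 at h
  rcases brec_true h with h | h
  · exact dp_b_1_s hinv hr hH j u hu h
  · exact dp_b_2_s hinv hr hH j u hu h
theorem dp_b_4_s (hinv : ∀ x, g (inv x) = (g x)⁻¹) (hr : ∀ r ∈ rels, (r.map g).prod = 1) (hH : ∀ r ∈ subs, (r.map g).prod ∈ H)
    (j u : ℕ) (hu : u < M) (h : dp_b_4 j u = true) : Good (fa g) T MG M (cP g H) Lt.b u := by
  unfold dp_b_4 at h
  rcases brec_true h with h | h
  · exact lF_good (T := T) (x := Lt.b) (by decide) [Lt.f, Lt.b, Lt.w, Lt.f] (hole_rel hinv hr (by decide +kernel)) h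
  · exact lF_good (T := T) (x := Lt.b) (by decide) [Lt.w, Lt.e, Lt.b, Lt.e] (hole_rel hinv hr (by decide +kernel)) h
theorem dp_b_5_s (hinv : ∀ x, g (inv x) = (g x)⁻¹) (hr : ∀ r ∈ rels, (r.map g).prod = 1) (hH : ∀ r ∈ subs, (r.map g).prod ∈ H)
    (j u : ℕ) (hu : u < M) (h : dp_b_5 j u = true) : Good (fa g) T MG M (cP g H) Lt.b u := by
  unfold dp_b_5 at h
  rcases brec_true h with h | h
  · exact lF_good (T := T) (x := Lt.b) (by decide) [Lt.w, Lt.h, Lt.b, Lt.h] (hole_rel hinv hr (by decide +kernel)) h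
  · exact lF_good (T := T) (x := Lt.b) (by decide) [Lt.w, Lt.d, Lt.b, Lt.d] (hole_rel hinv hr (by decide +kernel)) h
theorem dp_b_6_s (hinv : ∀ x, g (inv x) = (g x)⁻¹) (hr : ∀ r ∈ rels, (r.map g).prod = 1) (hH : ∀ r ∈ subs, (r.map g).prod ∈ H)
    (j u : ℕ) (hu : u < M) (h : dp_b_6 j u = true) : Good (fa g) T MG M (cP g H) Lt.b u := by
  unfold dp_b_6 at h
  rcases brec_true h with h | h
  · exact lF_good (T := T) (x := Lt.b) (by decide) [Lt.c, Lt.b, Lt.c, Lt.b, Lt.c] (hole_rel hinv hr (by decide +kernel)) h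
  · exact lH_good (T := T) (x := Lt.b) (by decide) [] [] (by rw [show cP g H 0 = _ from cc_zero]; exact sub_rel hinv (hH _ (by decide))) h
theorem dp_b_7_s (hinv : ∀ x, g (inv x) = (g x)⁻¹) (hr : ∀ r ∈ rels, (r.map g).prod = 1) (hH : ∀ r ∈ subs, (r.map g).prod ∈ H)
    (j u : ℕ) (hu : u < M) (h : dp_b_7 j u = true) : Good (fa g) T MG M (cP g H) Lt.b u := by
  unfold dp_b_7 at h
  rcases brec_true h with h | h
  · exact lF_good (T := T) (x := Lt.b) (by decide) [Lt.w, Lt.f, Lt.b, Lt.f] (hole_rel hinv hr (by decide +kernel)) h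
  · exact dp_b_6_s hinv hr hH j u hu h
theorem dp_b_8_s (hinv : ∀ x, g (inv x) = (g x)⁻¹) (hr : ∀ r ∈ rels, (r.map g).prod = 1) (hH : ∀ r ∈ subs, (r.map g).prod ∈ H)
    (j u : ℕ) (hu : u < M) (h : dp_b_8 j u = true) : Good (fa g) T MG M (cP g H) Lt.b u := by
  unfold dp_b_8 at h
  rcases brec_true h with h | h
  · exact lF_good (T := T) (x := Lt.b) (by decide) [Lt.e, Lt.b, Lt.w, Lt.e] (hole_rel hinv hr (by decide +kernel)) h
  · exact dp_b_7_s hinv hr hH j u hu h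
theorem dp_b_9_s (hinv : ∀ x, g (inv x) = (g x)⁻¹) (hr : ∀ r ∈ rels, (r.map g).prod = 1) (hH : ∀ r ∈ subs, (r.map g).prod ∈ H)
    (j u : ℕ) (hu : u < M) (h : dp_b_9 j u = true) : Good (fa g) T MG M (cP g H) Lt.b u := by
  unfold dp_b_9 at h
  rcases brec_true h with h | h
  · exact dp_b_5_s hinv hr hH j u hu h
  · exact dp_b_8_s hinv hr hH j u hu h
theorem dp_b_10_s (hinv : ∀ x, g (inv x) = (g x)⁻¹) (hr : ∀ r ∈ rels, (r.map g).prod = 1) (hH : ∀ r ∈ subs, (r.map g).prod ∈ H)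
    (j u : ℕ) (hu : u < M) (h : dp_b_10 j u = true) : Good (fa g) T MG M (cP g H) Lt.b u := by
  unfold dp_b_10 at h
  rcases brec_true h with h | h
  · exact dp_b_4_s hinv hr hH j u hu h
  · exact dp_b_9_s hinv hr hH j u hu h
theorem dp_b_11_s (hinv : ∀ x, g (inv x) = (g x)⁻¹) (hr : ∀ r ∈ rels, (r.map g).prod = 1) (hH : ∀ r ∈ subs, (r.map g).prod ∈ H)
    (j u : ℕ) (hu : u < M) (h : dp_b_11 j u = true) : Good (fa g) T MG M (cP g H) Lt.b u := by
  unfold dp_b_11 at h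
  rcases brec_true h with h | h
  · exact dp_b_3_s hinv hr hH j u hu h
  · exact dp_b_10_s hinv hr hH j u hu h
theorem dp_b_12_s (hinv : ∀ x, g (inv x) = (g x)⁻¹) (hr : ∀ r ∈ rels, (r.map g).prod = 1) (hH : ∀ r ∈ subs, (r.map g).prod ∈ H)
    (j u : ℕ) (hu : u < M) (h : dp_b_12 j u = true) : Good (fa g) T MG M (cP g H) Lt.b u := by
  unfold dp_b_12 at h
  rcases brec_true h with h | h
  · rcases brec_true h with h | h
    · exact lF3_good (T := T) (x := Lt.b) (by decide) .u .b .ui (hole_rel hinv hr (by decide +kernel)) h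
    · exact dp_b_0_s hinv hr hH j u hu h
  · exact dp_b_11_s hinv hr hH j u hu h
theorem snd_b (hinv : ∀ x, g (inv x) = (g x)⁻¹) (hr : ∀ r ∈ rels, (r.map g).prod = 1) (hH : ∀ r ∈ subs, (r.map g).prod ∈ H)
    (j u : ℕ) (hu : u < M) (h : disp_b j u = true) : Good (fa g) T MG M (cP g H) Lt.b u := by
  unfold disp_b at h
  rcases brec_true h with h | h
  · rcases brec_true h with h | h
    · exact lF1_good (T := T) (x := Lt.b) (by decide) .b (hole_rel hinv hr (by decide +kernel)) h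
    · exact lF3_good (T := T) (x := Lt.b) (by decide) .ui .b .u (hole_rel hinv hr (by decide +kernel)) h
  · exact dp_b_12_s hinv hr hH j u hu h
theorem snc_b (hinv : ∀ x, g (inv x) = (g x)⁻¹) (hr : ∀ r ∈ rels, (r.map g).prod = 1) (hH : ∀ r ∈ subs, (r.map g).prod ∈ H)
    (j u : ℕ) (hu : u < M) (h : chk_b j u = true) : (T Lt.b u < A ∧ Good (fa g) T MG M (cP g H) Lt.b u) ∨ (A ≤ T Lt.b u ∧ MG u < A) := by
  unfold chk_b at h
  cases hb : Nat.ble A (T_b u) with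
  | true => rw [hb] at h; exact Or.inr ⟨le_of_ble hb, le_of_ble h⟩
  | false => rw [hb] at h; exact Or.inl ⟨lt_of_ble_false hb, snd_b hinv hr hH j u hu h⟩
theorem dp_c_0_s (hinv : ∀ x, g (inv x) = (g x)⁻¹) (hr : ∀ r ∈ rels, (r.map g).prod = 1) (hH : ∀ r ∈ subs, (r.map g).prod ∈ H)
    (j u : ℕ) (hu : u < M) (h : dp_c_0 j u = true) : Good (fa g) T MG M (cP g H) Lt.c u := by
  unfold dp_c_0 at h
  rcases brec_true h with h | h
  · exact lF_good (T := T) (x := Lt.c) (by decide) [Lt.w, Lt.i, Lt.c, Lt.i] (hole_rel hinv hr (by decide +kernel)) h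
  · exact lDef_good (T := T) (x := Lt.c) (by decide) rfl h
theorem dp_c_1_s (hinv : ∀ x, g (inv x) = (g x)⁻¹) (hr : ∀ r ∈ rels, (r.map g).prod = 1) (hH : ∀ r ∈ subs, (r.map g).prod ∈ H)
    (j u : ℕ) (hu : u < M) (h : dp_c_1 j u = true) : Good (fa g) T MG M (cP g H) Lt.c u := by
  unfold dp_c_1 at h
  rcases brec_true h with h | h
  · exact lF_good (T := T) (x := Lt.c) (by decide) [Lt.w, Lt.h, Lt.c, Lt.h] (hole_rel hinv hr (by decide +kernel)) h
  · exact lF_good (T := T) (x := Lt.c) (by decide) [Lt.w, Lt.e, Lt.c, Lt.e] (hole_rel hinv hr (by decide +kernel)) h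
theorem dp_c_2_s (hinv : ∀ x, g (inv x) = (g x)⁻¹) (hr : ∀ r ∈ rels, (r.map g).prod = 1) (hH : ∀ r ∈ subs, (r.map g).prod ∈ H)
    (j u : ℕ) (hu : u < M) (h : dp_c_2 j u = true) : Good (fa g) T MG M (cP g H) Lt.c u := by
  unfold dp_c_2 at h
  rcases brec_true h with h | h
  · exact lF_good (T := T) (x := Lt.c) (by decide) [Lt.h, Lt.c, Lt.w, Lt.h] (hole_rel hinv hr (by decide +kernel)) h
  · exact lF_good (T := T) (x := Lt.c) (by decide) [Lt.w, Lt.f, Lt.c, Lt.f] (hole_rel hinv hr (by decide +kernel)) h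
theorem dp_c_3_s (hinv : ∀ x, g (inv x) = (g x)⁻¹) (hr : ∀ r ∈ rels, (r.map g).prod = 1) (hH : ∀ r ∈ subs, (r.map g).prod ∈ H)
    (j u : ℕ) (hu : u < M) (h : dp_c_3 j u = true) : Good (fa g) T MG M (cP g H) Lt.c u := by
  unfold dp_c_3 at h
  rcases brec_true h with h | h
  · exact lF_good (T := T) (x := Lt.c) (by decide) [Lt.i, Lt.c, Lt.w, Lt.i] (hole_rel hinv hr (by decide +kernel)) h
  · exact lF_good (T := T) (x := Lt.c) (by decide) [Lt.d, Lt.c, Lt.d, Lt.c, Lt.d] (hole_rel hinv hr (by decide +kernel)) h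
theorem dp_c_4_s (hinv : ∀ x, g (inv x) = (g x)⁻¹) (hr : ∀ r ∈ rels, (r.map g).prod = 1) (hH : ∀ r ∈ subs, (r.map g).prod ∈ H)
    (j u : ℕ) (hu : u < M) (h : dp_c_4 j u = true) : Good (fa g) T MG M (cP g H) Lt.c u := by
  unfold dp_c_4 at h
  rcases brec_true h with h | h
  · exact lF_good (T := T) (x := Lt.c) (by decide) [Lt.e, Lt.c, Lt.w, Lt.e] (hole_rel hinv hr (by decide +kernel)) h
  · exact lH_good (T := T) (x := Lt.c) (by decide) [] [] (by rw [show cP g H 0 = _ from cc_zero]; exact sub_rel hinv (hH _ (by decide))) h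
theorem dp_c_5_s (hinv : ∀ x, g (inv x) = (g x)⁻¹) (hr : ∀ r ∈ rels, (r.map g).prod = 1) (hH : ∀ r ∈ subs, (r.map g).prod ∈ H)
    (j u : ℕ) (hu : u < M) (h : dp_c_5 j u = true) : Good (fa g) T MG M (cP g H) Lt.c u := by
  unfold dp_c_5 at h
  rcases brec_true h with h | h
  · exact lF_good (T := T) (x := Lt.c) (by decide) [Lt.b, Lt.c, Lt.b, Lt.c, Lt.b] (hole_rel hinv hr (by decide +kernel)) h
  · exact dp_c_4_s hinv hr hH j u hu h
theorem dp_c_6_s (hinv : ∀ x, g (inv x) = (g x)⁻¹) (hr : ∀ r ∈ rels, (r.map g).prod = 1) (hH : ∀ r ∈ subs, (r.map g).prod ∈ H)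
    (j u : ℕ) (hu : u < M) (h : dp_c_6 j u = true) : Good (fa g) T MG M (cP g H) Lt.c u := by
  unfold dp_c_6 at h
  rcases brec_true h with h | h
  · exact lF_good (T := T) (x := Lt.c) (by decide) [Lt.f, Lt.c, Lt.w, Lt.f] (hole_rel hinv hr (by decide +kernel)) h
  · exact dp_c_5_s hinv hr hH j u hu h
theorem dp_c_7_s (hinv : ∀ x, g (inv x) = (g x)⁻¹) (hr : ∀ r ∈ rels, (r.map g).prod = 1) (hH : ∀ r ∈ subs, (r.map g).prod ∈ H)
    (j u : ℕ) (hu : u < M) (h : dp_c_7 j u = true) : Good (fa g) T MG M (cP g H) Lt.c u := by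
  unfold dp_c_7 at h
  rcases brec_true h with h | h
  · exact dp_c_3_s hinv hr hH j u hu h
  · exact dp_c_6_s hinv hr hH j u hu h
theorem dp_c_8_s (hinv : ∀ x, g (inv x) = (g x)⁻¹) (hr : ∀ r ∈ rels, (r.map g).prod = 1) (hH : ∀ r ∈ subs, (r.map g).prod ∈ H)
    (j u : ℕ) (hu : u < M) (h : dp_c_8 j u = true) : Good (fa g) T MG M (cP g H) Lt.c u := by
  unfold dp_c_8 at h
  rcases brec_true h with h | h
  · exact dp_c_2_s hinv hr hH j u hu h
  · exact dp_c_7_s hinv hr hH j u hu h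
theorem dp_c_9_s (hinv : ∀ x, g (inv x) = (g x)⁻¹) (hr : ∀ r ∈ rels, (r.map g).prod = 1) (hH : ∀ r ∈ subs, (r.map g).prod ∈ H)
    (j u : ℕ) (hu : u < M) (h : dp_c_9 j u = true) : Good (fa g) T MG M (cP g H) Lt.c u := by
  unfold dp_c_9 at h
  rcases brec_true h with h | h
  · rcases brec_true h with h | h
    · exact lPar_good (T := T) (x := Lt.c) (x' := Lt.c) (by decide) rfl (inv_rel hinv _ _ rfl) h
    · exact dp_c_1_s hinv hr hH j u hu h
  · exact dp_c_8_s hinv hr hH j u hu h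
theorem dp_c_10_s (hinv : ∀ x, g (inv x) = (g x)⁻¹) (hr : ∀ r ∈ rels, (r.map g).prod = 1) (hH : ∀ r ∈ subs, (r.map g).prod ∈ H)
    (j u : ℕ) (hu : u < M) (h : dp_c_10 j u = true) : Good (fa g) T MG M (cP g H) Lt.c u := by
  unfold dp_c_10 at h
  rcases brec_true h with h | h
  · rcases brec_true h with h | h
    · exact lF3_good (T := T) (x := Lt.c) (by decide) .u .c .ui (hole_rel hinv hr (by decide +kernel)) h
    · exact dp_c_0_s hinv hr hH j u hu h
  · exact dp_c_9_s hinv hr hH j u hu h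
theorem snd_c (hinv : ∀ x, g (inv x) = (g x)⁻¹) (hr : ∀ r ∈ rels, (r.map g).prod = 1) (hH : ∀ r ∈ subs, (r.map g).prod ∈ H)
    (j u : ℕ) (hu : u < M) (h : disp_c j u = true) : Good (fa g) T MG M (cP g H) Lt.c u := by
  unfold disp_c at h
  rcases brec_true h with h | h
  · rcases brec_true h with h | h
    · exact lF3_good (T := T) (x := Lt.c) (by decide) .ui .c .u (hole_rel hinv hr (by decide +kernel)) h
    · exact lF1_good (T := T) (x := Lt.c) (by decide) .c (hole_rel hinv hr (by decide +kernel)) h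
  · exact dp_c_10_s hinv hr hH j u hu h
theorem snc_c (hinv : ∀ x, g (inv x) = (g x)⁻¹) (hr : ∀ r ∈ rels, (r.map g).prod = 1) (hH : ∀ r ∈ subs, (r.map g).prod ∈ H)
    (j u : ℕ) (hu : u < M) (h : chk_c j u = true) : (T Lt.c u < A ∧ Good (fa g) T MG M (cP g H) Lt.c u) ∨ (A ≤ T Lt.c u ∧ MG u < A) := by
  unfold chk_c at h
  cases hb : Nat.ble A (T_c u) with
  | true => rw [hb] at h; exact Or.inr ⟨le_of_ble hb, le_of_ble h⟩
  | false => rw [hb] at h; exact Or.inl ⟨lt_of_ble_false hb, snd_c hinv hr hH j u hu h⟩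
theorem dp_d_0_s (hinv : ∀ x, g (inv x) = (g x)⁻¹) (hr : ∀ r ∈ rels, (r.map g).prod = 1) (hH : ∀ r ∈ subs, (r.map g).prod ∈ H)
    (j u : ℕ) (hu : u < M) (h : dp_d_0 j u = true) : Good (fa g) T MG M (cP g H) Lt.d u := by
  unfold dp_d_0 at h
  rcases brec_true h with h | h
  · exact lF_good (T := T) (x := Lt.d) (by decide) [Lt.b, Lt.w, Lt.d, Lt.b] (hole_rel hinv hr (by decide +kernel)) h
  · exact lF_good (T := T) (x := Lt.d) (by decide) [Lt.e, Lt.d, Lt.e, Lt.d, Lt.e] (hole_rel hinv hr (by decide +kernel)) h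
theorem dp_d_1_s (hinv : ∀ x, g (inv x) = (g x)⁻¹) (hr : ∀ r ∈ rels, (r.map g).prod = 1) (hH : ∀ r ∈ subs, (r.map g).prod ∈ H)
    (j u : ℕ) (hu : u < M) (h : dp_d_1 j u = true) : Good (fa g) T MG M (cP g H) Lt.d u := by
  unfold dp_d_1 at h
  rcases brec_true h with h | h
  · exact lH_good (T := T) (x := Lt.d) (by decide) [] [] (by rw [show cP g H 0 = _ from cc_zero]; exact sub_rel hinv (hH _ (by decide))) h
  · exact lF_good (T := T) (x := Lt.d) (by decide) [Lt.f, Lt.d, Lt.f, Lt.w] (hole_rel hinv hr (by decide +kernel)) h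
theorem dp_d_2_s (hinv : ∀ x, g (inv x) = (g x)⁻¹) (hr : ∀ r ∈ rels, (r.map g).prod = 1) (hH : ∀ r ∈ subs, (r.map g).prod ∈ H)
    (j u : ℕ) (hu : u < M) (h : dp_d_2 j u = true) : Good (fa g) T MG M (cP g H) Lt.d u := by
  unfold dp_d_2 at h
  rcases brec_true h with h | h
  · exact lF_good (T := T) (x := Lt.d) (by decide) [Lt.i, Lt.d, Lt.w, Lt.i] (hole_rel hinv hr (by decide +kernel)) h
  · exact dp_d_1_s hinv hr hH j u hu h
theorem dp_d_3_s (hinv : ∀ x, g (inv x) = (g x)⁻¹) (hr : ∀ r ∈ rels, (r.map g).prod = 1) (hH : ∀ r ∈ subs, (r.map g).prod ∈ H)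
    (j u : ℕ) (hu : u < M) (h : dp_d_3 j u = true) : Good (fa g) T MG M (cP g H) Lt.d u := by
  unfold dp_d_3 at h
  rcases brec_true h with h | h
  · exact lF_good (T := T) (x := Lt.d) (by decide) [Lt.h, Lt.d, Lt.h, Lt.d, Lt.h] (hole_rel hinv hr (by decide +kernel)) h
  · exact dp_d_2_s hinv hr hH j u hu h
theorem dp_d_4_s (hinv : ∀ x, g (inv x) = (g x)⁻¹) (hr : ∀ r ∈ rels, (r.map g).prod = 1) (hH : ∀ r ∈ subs, (r.map g).prod ∈ H)
    (j u : ℕ) (hu : u < M) (h : dp_d_4 j u = true) : Good (fa g) T MG M (cP g H) Lt.d u := by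
  unfold dp_d_4 at h
  rcases brec_true h with h | h
  · exact lF_good (T := T) (x := Lt.d) (by decide) [Lt.c, Lt.d, Lt.c, Lt.d, Lt.c] (hole_rel hinv hr (by decide +kernel)) h
  · exact dp_d_3_s hinv hr hH j u hu h
theorem dp_d_5_s (hinv : ∀ x, g (inv x) = (g x)⁻¹) (hr : ∀ r ∈ rels, (r.map g).prod = 1) (hH : ∀ r ∈ subs, (r.map g).prod ∈ H)
    (j u : ℕ) (hu : u < M) (h : dp_d_5 j u = true) : Good (fa g) T MG M (cP g H) Lt.d u := by
  unfold dp_d_5 at h
  rcases brec_true h with h | h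
  · exact dp_d_0_s hinv hr hH j u hu h
  · exact dp_d_4_s hinv hr hH j u hu h
theorem dp_d_6_s (hinv : ∀ x, g (inv x) = (g x)⁻¹) (hr : ∀ r ∈ rels, (r.map g).prod = 1) (hH : ∀ r ∈ subs, (r.map g).prod ∈ H)
    (j u : ℕ) (hu : u < M) (h : dp_d_6 j u = true) : Good (fa g) T MG M (cP g H) Lt.d u := by
  unfold dp_d_6 at h
  rcases brec_true h with h | h
  · exact lF_good (T := T) (x := Lt.d) (by decide) [Lt.f, Lt.w, Lt.d, Lt.f] (hole_rel hinv hr (by decide +kernel)) h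
  · exact dp_d_5_s hinv hr hH j u hu h
theorem dp_d_7_s (hinv : ∀ x, g (inv x) = (g x)⁻¹) (hr : ∀ r ∈ rels, (r.map g).prod = 1) (hH : ∀ r ∈ subs, (r.map g).prod ∈ H)
    (j u : ℕ) (hu : u < M) (h : dp_d_7 j u = true) : Good (fa g) T MG M (cP g H) Lt.d u := by
  unfold dp_d_7 at h
  rcases brec_true h with h | h
  · rcases brec_true h with h | h
    · exact lPar_good (T := T) (x := Lt.d) (x' := Lt.d) (by decide) rfl (inv_rel hinv _ _ rfl) h
    · exact lF_good (T := T) (x := Lt.d) (by decide) [Lt.w, Lt.i, Lt.d, Lt.i] (hole_rel hinv hr (by decide +kernel)) h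
  · exact dp_d_6_s hinv hr hH j u hu h
theorem snd_d (hinv : ∀ x, g (inv x) = (g x)⁻¹) (hr : ∀ r ∈ rels, (r.map g).prod = 1) (hH : ∀ r ∈ subs, (r.map g).prod ∈ H)
    (j u : ℕ) (hu : u < M) (h : disp_d j u = true) : Good (fa g) T MG M (cP g H) Lt.d u := by
  unfold disp_d at h
  rcases brec_true h with h | h
  · rcases brec_true h with h | h
    · exact lF3_good (T := T) (x := Lt.d) (by decide) .ui .d .u (hole_rel hinv hr (by decide +kernel)) h
    · exact lF1_good (T := T) (x := Lt.d) (by decide) .d (hole_rel hinv hr (by decide +kernel)) h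
  · rcases brec_true h with h | h
    · rcases brec_true h with h | h
      · exact lF3_good (T := T) (x := Lt.d) (by decide) .u .d .ui (hole_rel hinv hr (by decide +kernel)) h
      · exact lDef_good (T := T) (x := Lt.d) (by decide) rfl h
    · exact dp_d_7_s hinv hr hH j u hu h
theorem snc_d (hinv : ∀ x, g (inv x) = (g x)⁻¹) (hr : ∀ r ∈ rels, (r.map g).prod = 1) (hH : ∀ r ∈ subs, (r.map g).prod ∈ H)
    (j u : ℕ) (hu : u < M) (h : chk_d j u = true) : (T Lt.d u < A ∧ Good (fa g) T MG M (cP g H) Lt.d u) ∨ (A ≤ T Lt.d u ∧ MG u < A) := by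
  unfold chk_d at h
  cases hb : Nat.ble A (T_d u) with
  | true => rw [hb] at h; exact Or.inr ⟨le_of_ble hb, le_of_ble h⟩
  | false => rw [hb] at h; exact Or.inl ⟨lt_of_ble_false hb, snd_d hinv hr hH j u hu h⟩
theorem dp_e_0_s (hinv : ∀ x, g (inv x) = (g x)⁻¹) (hr : ∀ r ∈ rels, (r.map g).prod = 1) (hH : ∀ r ∈ subs, (r.map g).prod ∈ H)
    (j u : ℕ) (hu : u < M) (h : dp_e_0 j u = true) : Good (fa g) T MG M (cP g H) Lt.e u := by
  unfold dp_e_0 at h
  rcases brec_true h with h | h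
  · exact lF_good (T := T) (x := Lt.e) (by decide) [Lt.w, Lt.h, Lt.e, Lt.h] (hole_rel hinv hr (by decide +kernel)) h
  · exact lF_good (T := T) (x := Lt.e) (by decide) [Lt.b, Lt.w, Lt.e, Lt.b] (hole_rel hinv hr (by decide +kernel)) h
theorem dp_e_1_s (hinv : ∀ x, g (inv x) = (g x)⁻¹) (hr : ∀ r ∈ rels, (r.map g).prod = 1) (hH : ∀ r ∈ subs, (r.map g).prod ∈ H)
    (j u : ℕ) (hu : u < M) (h : dp_e_1 j u = true) : Good (fa g) T MG M (cP g H) Lt.e u := by
  unfold dp_e_1 at h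
  rcases brec_true h with h | h
  · exact lF_good (T := T) (x := Lt.e) (by decide) [Lt.i, Lt.e, Lt.w, Lt.i] (hole_rel hinv hr (by decide +kernel)) h
  · exact lF_good (T := T) (x := Lt.e) (by decide) [Lt.c, Lt.w, Lt.e, Lt.c] (hole_rel hinv hr (by decide +kernel)) h
theorem dp_e_2_s (hinv : ∀ x, g (inv x) = (g x)⁻¹) (hr : ∀ r ∈ rels, (r.map g).prod = 1) (hH : ∀ r ∈ subs, (r.map g).prod ∈ H)
    (j u : ℕ) (hu : u < M) (h : dp_e_2 j u = true) : Good (fa g) T MG M (cP g H) Lt.e u := by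
  unfold dp_e_2 at h
  rcases brec_true h with h | h
  · exact lF_good (T := T) (x := Lt.e) (by decide) [Lt.f, Lt.e, Lt.f, Lt.e, Lt.f] (hole_rel hinv hr (by decide +kernel)) h
  · exact lH_good (T := T) (x := Lt.e) (by decide) [] [] (by rw [show cP g H 0 = _ from cc_zero]; exact sub_rel hinv (hH _ (by decide))) h
theorem dp_e_3_s (hinv : ∀ x, g (inv x) = (g x)⁻¹) (hr : ∀ r ∈ rels, (r.map g).prod = 1) (hH : ∀ r ∈ subs, (r.map g).prod ∈ H)
    (j u : ℕ) (hu : u < M) (h : dp_e_3 j u = true) : Good (fa g) T MG M (cP g H) Lt.e u := by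
  unfold dp_e_3 at h
  rcases brec_true h with h | h
  · exact lF_good (T := T) (x := Lt.e) (by decide) [Lt.d, Lt.e, Lt.d, Lt.e, Lt.d] (hole_rel hinv hr (by decide +kernel)) h
  · exact dp_e_2_s hinv hr hH j u hu h
theorem dp_e_4_s (hinv : ∀ x, g (inv x) = (g x)⁻¹) (hr : ∀ r ∈ rels, (r.map g).prod = 1) (hH : ∀ r ∈ subs, (r.map g).prod ∈ H)
    (j u : ℕ) (hu : u < M) (h : dp_e_4 j u = true) : Good (fa g) T MG M (cP g H) Lt.e u := by
  unfold dp_e_4 at h
  rcases brec_true h with h | h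
  · exact lF_good (T := T) (x := Lt.e) (by decide) [Lt.h, Lt.e, Lt.w, Lt.h] (hole_rel hinv hr (by decide +kernel)) h
  · exact dp_e_3_s hinv hr hH j u hu h
theorem dp_e_5_s (hinv : ∀ x, g (inv x) = (g x)⁻¹) (hr : ∀ r ∈ rels, (r.map g).prod = 1) (hH : ∀ r ∈ subs, (r.map g).prod ∈ H)
    (j u : ℕ) (hu : u < M) (h : dp_e_5 j u = true) : Good (fa g) T MG M (cP g H) Lt.e u := by
  unfold dp_e_5 at h
  rcases brec_true h with h | h
  · exact dp_e_1_s hinv hr hH j u hu h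
  · exact dp_e_4_s hinv hr hH j u hu h
theorem dp_e_6_s (hinv : ∀ x, g (inv x) = (g x)⁻¹) (hr : ∀ r ∈ rels, (r.map g).prod = 1) (hH : ∀ r ∈ subs, (r.map g).prod ∈ H)
    (j u : ℕ) (hu : u < M) (h : dp_e_6 j u = true) : Good (fa g) T MG M (cP g H) Lt.e u := by
  unfold dp_e_6 at h
  rcases brec_true h with h | h
  · rcases brec_true h with h | h
    · exact lPar_good (T := T) (x := Lt.e) (x' := Lt.e) (by decide) rfl (inv_rel hinv _ _ rfl) h
    · exact lF_good (T := T) (x := Lt.e) (by decide) [Lt.w, Lt.i, Lt.e, Lt.i] (hole_rel hinv hr (by decide +kernel)) h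
  · rcases brec_true h with h | h
    · exact dp_e_0_s hinv hr hH j u hu h
    · exact dp_e_5_s hinv hr hH j u hu h
theorem snd_e (hinv : ∀ x, g (inv x) = (g x)⁻¹) (hr : ∀ r ∈ rels, (r.map g).prod = 1) (hH : ∀ r ∈ subs, (r.map g).prod ∈ H)
    (j u : ℕ) (hu : u < M) (h : disp_e j u = true) : Good (fa g) T MG M (cP g H) Lt.e u := by
  unfold disp_e at h
  rcases brec_true h with h | h
  · rcases brec_true h with h | h
    · exact lF3_good (T := T) (x := Lt.e) (by decide) .ui .e .u (hole_rel hinv hr (by decide +kernel)) h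
    · exact lF1_good (T := T) (x := Lt.e) (by decide) .e (hole_rel hinv hr (by decide +kernel)) h
  · rcases brec_true h with h | h
    · rcases brec_true h with h | h
      · exact lF3_good (T := T) (x := Lt.e) (by decide) .u .e .ui (hole_rel hinv hr (by decide +kernel)) h
      · exact lDef_good (T := T) (x := Lt.e) (by decide) rfl h
    · exact dp_e_6_s hinv hr hH j u hu h
theorem snc_e (hinv : ∀ x, g (inv x) = (g x)⁻¹) (hr : ∀ r ∈ rels, (r.map g).prod = 1) (hH : ∀ r ∈ subs, (r.map g).prod ∈ H)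
    (j u : ℕ) (hu : u < M) (h : chk_e j u = true) : (T Lt.e u < A ∧ Good (fa g) T MG M (cP g H) Lt.e u) ∨ (A ≤ T Lt.e u ∧ MG u < A) := by
  unfold chk_e at h
  cases hb : Nat.ble A (T_e u) with
  | true => rw [hb] at h; exact Or.inr ⟨le_of_ble hb, le_of_ble h⟩
  | false => rw [hb] at h; exact Or.inl ⟨lt_of_ble_false hb, snd_e hinv hr hH j u hu h⟩
theorem dp_f_0_s (hinv : ∀ x, g (inv x) = (g x)⁻¹) (hr : ∀ r ∈ rels, (r.map g).prod = 1) (hH : ∀ r ∈ subs, (r.map g).prod ∈ H)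
    (j u : ℕ) (hu : u < M) (h : dp_f_0 j u = true) : Good (fa g) T MG M (cP g H) Lt.f u := by
  unfold dp_f_0 at h
  rcases brec_true h with h | h
  · exact lF_good (T := T) (x := Lt.f) (by decide) [Lt.w, Lt.h, Lt.f, Lt.h] (hole_rel hinv hr (by decide +kernel)) h
  · exact lF_good (T := T) (x := Lt.f) (by decide) [Lt.c, Lt.w, Lt.f, Lt.c] (hole_rel hinv hr (by decide +kernel)) h
theorem dp_f_1_s (hinv : ∀ x, g (inv x) = (g x)⁻¹) (hr : ∀ r ∈ rels, (r.map g).prod = 1) (hH : ∀ r ∈ subs, (r.map g).prod ∈ H)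
    (j u : ℕ) (hu : u < M) (h : dp_f_1 j u = true) : Good (fa g) T MG M (cP g H) Lt.f u := by
  unfold dp_f_1 at h
  rcases brec_true h with h | h
  · exact lF_good (T := T) (x := Lt.f) (by decide) [Lt.w, Lt.d, Lt.f, Lt.d] (hole_rel hinv hr (by decide +kernel)) h
  · exact lF_good (T := T) (x := Lt.f) (by decide) [Lt.i, Lt.f, Lt.w, Lt.i] (hole_rel hinv hr (by decide +kernel)) h
theorem dp_f_2_s (hinv : ∀ x, g (inv x) = (g x)⁻¹) (hr : ∀ r ∈ rels, (r.map g).prod = 1) (hH : ∀ r ∈ subs, (r.map g).prod ∈ H)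
    (j u : ℕ) (hu : u < M) (h : dp_f_2 j u = true) : Good (fa g) T MG M (cP g H) Lt.f u := by
  unfold dp_f_2 at h
  rcases brec_true h with h | h
  · exact lF_good (T := T) (x := Lt.f) (by decide) [Lt.b, Lt.w, Lt.f, Lt.b] (hole_rel hinv hr (by decide +kernel)) h
  · exact dp_f_1_s hinv hr hH j u hu h
theorem dp_f_3_s (hinv : ∀ x, g (inv x) = (g x)⁻¹) (hr : ∀ r ∈ rels, (r.map g).prod = 1) (hH : ∀ r ∈ subs, (r.map g).prod ∈ H)
    (j u : ℕ) (hu : u < M) (h : dp_f_3 j u = true) : Good (fa g) T MG M (cP g H) Lt.f u := by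
  unfold dp_f_3 at h
  rcases brec_true h with h | h
  · exact lH_good (T := T) (x := Lt.f) (by decide) [] [] (by rw [show cP g H 0 = _ from cc_zero]; exact sub_rel hinv (hH _ (by decide))) h
  · exact lF_good (T := T) (x := Lt.f) (by decide) [Lt.d, Lt.h, Lt.i, Lt.d, Lt.c, Lt.b, Lt.d, Lt.e, Lt.f, Lt.d, Lt.h, Lt.i, Lt.d, Lt.c, Lt.b, Lt.d, Lt.e, Lt.f, Lt.d, Lt.h, Lt.i, Lt.d, Lt.c, Lt.b, Lt.d, Lt.e, Lt.f, Lt.d, Lt.h, Lt.i, Lt.d, Lt.c, Lt.b, Lt.d, Lt.e, Lt.f, Lt.d, Lt.h, Lt.i, Lt.d, Lt.c, Lt.b, Lt.d, Lt.e, Lt.f, Lt.d, Lt.h, Lt.i, Lt.d, Lt.c, Lt.b, Lt.d, Lt.e, Lt.f, Lt.d, Lt.h, Lt.i, Lt.d, Lt.c, Lt.b, Lt.d, Lt.e, Lt.f, Lt.d, Lt.h, Lt.i, Lt.d, Lt.c, Lt.b, Lt.d, Lt.e, Lt.f, Lt.d, Lt.h, Lt.i, Lt.d, Lt.c, Lt.b, Lt.d, Lt.e, Lt.f, Lt.d, Lt.h, Lt.i, Lt.ui, Lt.d, Lt.c, Lt.b, Lt.d, Lt.e] (hole_rel hinv hr (by decide +kernel)) h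
theorem dp_f_4_s (hinv : ∀ x, g (inv x) = (g x)⁻¹) (hr : ∀ r ∈ rels, (r.map g).prod = 1) (hH : ∀ r ∈ subs, (r.map g).prod ∈ H)
    (j u : ℕ) (hu : u < M) (h : dp_f_4 j u = true) : Good (fa g) T MG M (cP g H) Lt.f u := by
  unfold dp_f_4 at h
  rcases brec_true h with h | h
  · exact lF_good (T := T) (x := Lt.f) (by decide) [Lt.e, Lt.f, Lt.e, Lt.f, Lt.e] (hole_rel hinv hr (by decide +kernel)) h
  · exact dp_f_3_s hinv hr hH j u hu h
theorem dp_f_5_s (hinv : ∀ x, g (inv x) = (g x)⁻¹) (hr : ∀ r ∈ rels, (r.map g).prod = 1) (hH : ∀ r ∈ subs, (r.map g).prod ∈ H)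
    (j u : ℕ) (hu : u < M) (h : dp_f_5 j u = true) : Good (fa g) T MG M (cP g H) Lt.f u := by
  unfold dp_f_5 at h
  rcases brec_true h with h | h
  · exact lF_good (T := T) (x := Lt.f) (by decide) [Lt.d, Lt.f, Lt.w, Lt.d] (hole_rel hinv hr (by decide +kernel)) h
  · exact dp_f_4_s hinv hr hH j u hu h
theorem dp_f_6_s (hinv : ∀ x, g (inv x) = (g x)⁻¹) (hr : ∀ r ∈ rels, (r.map g).prod = 1) (hH : ∀ r ∈ subs, (r.map g).prod ∈ H)
    (j u : ℕ) (hu : u < M) (h : dp_f_6 j u = true) : Good (fa g) T MG M (cP g H) Lt.f u := by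
  unfold dp_f_6 at h
  rcases brec_true h with h | h
  · exact lF_good (T := T) (x := Lt.f) (by decide) [Lt.h, Lt.f, Lt.w, Lt.h] (hole_rel hinv hr (by decide +kernel)) h
  · exact dp_f_5_s hinv hr hH j u hu h
theorem dp_f_7_s (hinv : ∀ x, g (inv x) = (g x)⁻¹) (hr : ∀ r ∈ rels, (r.map g).prod = 1) (hH : ∀ r ∈ subs, (r.map g).prod ∈ H)
    (j u : ℕ) (hu : u < M) (h : dp_f_7 j u = true) : Good (fa g) T MG M (cP g H) Lt.f u := by
  unfold dp_f_7 at h
  rcases brec_true h with h | h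
  · exact lF_good (T := T) (x := Lt.f) (by decide) [Lt.w, Lt.i, Lt.f, Lt.i] (hole_rel hinv hr (by decide +kernel)) h
  · exact dp_f_6_s hinv hr hH j u hu h
theorem dp_f_8_s (hinv : ∀ x, g (inv x) = (g x)⁻¹) (hr : ∀ r ∈ rels, (r.map g).prod = 1) (hH : ∀ r ∈ subs, (r.map g).prod ∈ H)
    (j u : ℕ) (hu : u < M) (h : dp_f_8 j u = true) : Good (fa g) T MG M (cP g H) Lt.f u := by
  unfold dp_f_8 at h
  rcases brec_true h with h | h
  · exact dp_f_2_s hinv hr hH j u hu h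
  · exact dp_f_7_s hinv hr hH j u hu h
theorem dp_f_9_s (hinv : ∀ x, g (inv x) = (g x)⁻¹) (hr : ∀ r ∈ rels, (r.map g).prod = 1) (hH : ∀ r ∈ subs, (r.map g).prod ∈ H)
    (j u : ℕ) (hu : u < M) (h : dp_f_9 j u = true) : Good (fa g) T MG M (cP g H) Lt.f u := by
  unfold dp_f_9 at h
  rcases brec_true h with h | h
  · rcases brec_true h with h | h
    · exact lPar_good (T := T) (x := Lt.f) (x' := Lt.f) (by decide) rfl (inv_rel hinv _ _ rfl) h
    · exact dp_f_0_s hinv hr hH j u hu h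
  · exact dp_f_8_s hinv hr hH j u hu h
theorem snd_f (hinv : ∀ x, g (inv x) = (g x)⁻¹) (hr : ∀ r ∈ rels, (r.map g).prod = 1) (hH : ∀ r ∈ subs, (r.map g).prod ∈ H)
    (j u : ℕ) (hu : u < M) (h : disp_f j u = true) : Good (fa g) T MG M (cP g H) Lt.f u := by
  unfold disp_f at h
  rcases brec_true h with h | h
  · rcases brec_true h with h | h
    · exact lF1_good (T := T) (x := Lt.f) (by decide) .f (hole_rel hinv hr (by decide +kernel)) h
    · exact lF3_good (T := T) (x := Lt.f) (by decide) .ui .f .u (hole_rel hinv hr (by decide +kernel)) h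
  · rcases brec_true h with h | h
    · rcases brec_true h with h | h
      · exact lF3_good (T := T) (x := Lt.f) (by decide) .u .f .ui (hole_rel hinv hr (by decide +kernel)) h
      · exact lDef_good (T := T) (x := Lt.f) (by decide) rfl h
    · exact dp_f_9_s hinv hr hH j u hu h
theorem snc_f (hinv : ∀ x, g (inv x) = (g x)⁻¹) (hr : ∀ r ∈ rels, (r.map g).prod = 1) (hH : ∀ r ∈ subs, (r.map g).prod ∈ H)
    (j u : ℕ) (hu : u < M) (h : chk_f j u = true) : (T Lt.f u < A ∧ Good (fa g) T MG M (cP g H) Lt.f u) ∨ (A ≤ T Lt.f u ∧ MG u < A) := by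
  unfold chk_f at h
  cases hb : Nat.ble A (T_f u) with
  | true => rw [hb] at h; exact Or.inr ⟨le_of_ble hb, le_of_ble h⟩
  | false => rw [hb] at h; exact Or.inl ⟨lt_of_ble_false hb, snd_f hinv hr hH j u hu h⟩
theorem dp_h_0_s (hinv : ∀ x, g (inv x) = (g x)⁻¹) (hr : ∀ r ∈ rels, (r.map g).prod = 1) (hH : ∀ r ∈ subs, (r.map g).prod ∈ H)
    (j u : ℕ) (hu : u < M) (h : dp_h_0 j u = true) : Good (fa g) T MG M (cP g H) Lt.h u := by
  unfold dp_h_0 at h
  rcases brec_true h with h | h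
  · exact lF_good (T := T) (x := Lt.h) (by decide) [Lt.b, Lt.w, Lt.h, Lt.b] (hole_rel hinv hr (by decide +kernel)) h
  · exact lF_good (T := T) (x := Lt.h) (by decide) [Lt.c, Lt.w, Lt.h, Lt.c] (hole_rel hinv hr (by decide +kernel)) h
theorem dp_h_1_s (hinv : ∀ x, g (inv x) = (g x)⁻¹) (hr : ∀ r ∈ rels, (r.map g).prod = 1) (hH : ∀ r ∈ subs, (r.map g).prod ∈ H)
    (j u : ℕ) (hu : u < M) (h : dp_h_1 j u = true) : Good (fa g) T MG M (cP g H) Lt.h u := by
  unfold dp_h_1 at h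
  rcases brec_true h with h | h
  · exact lH_good (T := T) (x := Lt.h) (by decide) [] [] (by rw [show cP g H 0 = _ from cc_zero]; exact sub_rel hinv (hH _ (by decide))) h
  · exact lF_good (T := T) (x := Lt.h) (by decide) [Lt.f, Lt.h, Lt.f, Lt.w] (hole_rel hinv hr (by decide +kernel)) h
theorem dp_h_2_s (hinv : ∀ x, g (inv x) = (g x)⁻¹) (hr : ∀ r ∈ rels, (r.map g).prod = 1) (hH : ∀ r ∈ subs, (r.map g).prod ∈ H)
    (j u : ℕ) (hu : u < M) (h : dp_h_2 j u = true) : Good (fa g) T MG M (cP g H) Lt.h u := by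
  unfold dp_h_2 at h
  rcases brec_true h with h | h
  · exact lF_good (T := T) (x := Lt.h) (by decide) [Lt.i, Lt.h, Lt.i, Lt.h, Lt.i] (hole_rel hinv hr (by decide +kernel)) h
  · exact dp_h_1_s hinv hr hH j u hu h
theorem dp_h_3_s (hinv : ∀ x, g (inv x) = (g x)⁻¹) (hr : ∀ r ∈ rels, (r.map g).prod = 1) (hH : ∀ r ∈ subs, (r.map g).prod ∈ H)
    (j u : ℕ) (hu : u < M) (h : dp_h_3 j u = true) : Good (fa g) T MG M (cP g H) Lt.h u := by
  unfold dp_h_3 at h
  rcases brec_true h with h | h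
  · exact lF_good (T := T) (x := Lt.h) (by decide) [Lt.d, Lt.h, Lt.d, Lt.h, Lt.d] (hole_rel hinv hr (by decide +kernel)) h
  · exact dp_h_2_s hinv hr hH j u hu h
theorem dp_h_4_s (hinv : ∀ x, g (inv x) = (g x)⁻¹) (hr : ∀ r ∈ rels, (r.map g).prod = 1) (hH : ∀ r ∈ subs, (r.map g).prod ∈ H)
    (j u : ℕ) (hu : u < M) (h : dp_h_4 j u = true) : Good (fa g) T MG M (cP g H) Lt.h u := by
  unfold dp_h_4 at h
  rcases brec_true h with h | h
  · exact lF_good (T := T) (x := Lt.h) (by decide) [Lt.e, Lt.w, Lt.h, Lt.e] (hole_rel hinv hr (by decide +kernel)) h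
  · exact dp_h_3_s hinv hr hH j u hu h
theorem dp_h_5_s (hinv : ∀ x, g (inv x) = (g x)⁻¹) (hr : ∀ r ∈ rels, (r.map g).prod = 1) (hH : ∀ r ∈ subs, (r.map g).prod ∈ H)
    (j u : ℕ) (hu : u < M) (h : dp_h_5 j u = true) : Good (fa g) T MG M (cP g H) Lt.h u := by
  unfold dp_h_5 at h
  rcases brec_true h with h | h
  · exact lF_good (T := T) (x := Lt.h) (by decide) [Lt.f, Lt.w, Lt.h, Lt.f] (hole_rel hinv hr (by decide +kernel)) h
  · exact dp_h_4_s hinv hr hH j u hu h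
theorem dp_h_6_s (hinv : ∀ x, g (inv x) = (g x)⁻¹) (hr : ∀ r ∈ rels, (r.map g).prod = 1) (hH : ∀ r ∈ subs, (r.map g).prod ∈ H)
    (j u : ℕ) (hu : u < M) (h : dp_h_6 j u = true) : Good (fa g) T MG M (cP g H) Lt.h u := by
  unfold dp_h_6 at h
  rcases brec_true h with h | h
  · exact lF3_good (T := T) (x := Lt.h) (by decide) .u .h .ui (hole_rel hinv hr (by decide +kernel)) h
  · rcases brec_true h with h | h
    · exact dp_h_0_s hinv hr hH j u hu h
    · exact dp_h_5_s hinv hr hH j u hu h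
theorem dp_h_7_s (hinv : ∀ x, g (inv x) = (g x)⁻¹) (hr : ∀ r ∈ rels, (r.map g).prod = 1) (hH : ∀ r ∈ subs, (r.map g).prod ∈ H)
    (j u : ℕ) (hu : u < M) (h : dp_h_7 j u = true) : Good (fa g) T MG M (cP g H) Lt.h u := by
  unfold dp_h_7 at h
  rcases brec_true h with h | h
  · exact lF3_good (T := T) (x := Lt.h) (by decide) .ui .h .u (hole_rel hinv hr (by decide +kernel)) h
  · exact dp_h_6_s hinv hr hH j u hu h
theorem snd_h (hinv : ∀ x, g (inv x) = (g x)⁻¹) (hr : ∀ r ∈ rels, (r.map g).prod = 1) (hH : ∀ r ∈ subs, (r.map g).prod ∈ H)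
    (j u : ℕ) (hu : u < M) (h : disp_h j u = true) : Good (fa g) T MG M (cP g H) Lt.h u := by
  unfold disp_h at h
  rcases brec_true h with h | h
  · rcases brec_true h with h | h
    · exact lF1_good (T := T) (x := Lt.h) (by decide) .h (hole_rel hinv hr (by decide +kernel)) h
    · rcases brec_true h with h | h
      · exact lDef_good (T := T) (x := Lt.h) (by decide) rfl h
      · exact lPar_good (T := T) (x := Lt.h) (x' := Lt.h) (by decide) rfl (inv_rel hinv _ _ rfl) h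
  · exact dp_h_7_s hinv hr hH j u hu h
theorem snc_h (hinv : ∀ x, g (inv x) = (g x)⁻¹) (hr : ∀ r ∈ rels, (r.map g).prod = 1) (hH : ∀ r ∈ subs, (r.map g).prod ∈ H)
    (j u : ℕ) (hu : u < M) (h : chk_h j u = true) : (T Lt.h u < A ∧ Good (fa g) T MG M (cP g H) Lt.h u) ∨ (A ≤ T Lt.h u ∧ MG u < A) := by
  unfold chk_h at h
  cases hb : Nat.ble A (T_h u) with
  | true => rw [hb] at h; exact Or.inr ⟨le_of_ble hb, le_of_ble h⟩
  | false => rw [hb] at h; exact Or.inl ⟨lt_of_ble_false hb, snd_h hinv hr hH j u hu h⟩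
theorem dp_i_0_s (hinv : ∀ x, g (inv x) = (g x)⁻¹) (hr : ∀ r ∈ rels, (r.map g).prod = 1) (hH : ∀ r ∈ subs, (r.map g).prod ∈ H)
    (j u : ℕ) (hu : u < M) (h : dp_i_0 j u = true) : Good (fa g) T MG M (cP g H) Lt.i u := by
  unfold dp_i_0 at h
  rcases brec_true h with h | h
  · exact lF_good (T := T) (x := Lt.i) (by decide) [Lt.d, Lt.w, Lt.i, Lt.d] (hole_rel hinv hr (by decide +kernel)) h
  · exact lF_good (T := T) (x := Lt.i) (by decide) [Lt.f, Lt.w, Lt.i, Lt.f] (hole_rel hinv hr (by decide +kernel)) h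
theorem dp_i_1_s (hinv : ∀ x, g (inv x) = (g x)⁻¹) (hr : ∀ r ∈ rels, (r.map g).prod = 1) (hH : ∀ r ∈ subs, (r.map g).prod ∈ H)
    (j u : ℕ) (hu : u < M) (h : dp_i_1 j u = true) : Good (fa g) T MG M (cP g H) Lt.i u := by
  unfold dp_i_1 at h
  rcases brec_true h with h | h
  · exact lF_good (T := T) (x := Lt.i) (by decide) [Lt.b, Lt.w, Lt.i, Lt.b] (hole_rel hinv hr (by decide +kernel)) h
  · exact lF_good (T := T) (x := Lt.i) (by decide) [Lt.h, Lt.i, Lt.h, Lt.i, Lt.h] (hole_rel hinv hr (by decide +kernel)) h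
theorem dp_i_2_s (hinv : ∀ x, g (inv x) = (g x)⁻¹) (hr : ∀ r ∈ rels, (r.map g).prod = 1) (hH : ∀ r ∈ subs, (r.map g).prod ∈ H)
    (j u : ℕ) (hu : u < M) (h : dp_i_2 j u = true) : Good (fa g) T MG M (cP g H) Lt.i u := by
  unfold dp_i_2 at h
  rcases brec_true h with h | h
  · exact lF_good (T := T) (x := Lt.i) (by decide) [Lt.c, Lt.w, Lt.i, Lt.c] (hole_rel hinv hr (by decide +kernel)) h
  · exact dp_i_1_s hinv hr hH j u hu h
theorem dp_i_3_s (hinv : ∀ x, g (inv x) = (g x)⁻¹) (hr : ∀ r ∈ rels, (r.map g).prod = 1) (hH : ∀ r ∈ subs, (r.map g).prod ∈ H)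
    (j u : ℕ) (hu : u < M) (h : dp_i_3 j u = true) : Good (fa g) T MG M (cP g H) Lt.i u := by
  unfold dp_i_3 at h
  rcases brec_true h with h | h
  · exact dp_i_0_s hinv hr hH j u hu h
  · exact dp_i_2_s hinv hr hH j u hu h
theorem snd_i (hinv : ∀ x, g (inv x) = (g x)⁻¹) (hr : ∀ r ∈ rels, (r.map g).prod = 1) (hH : ∀ r ∈ subs, (r.map g).prod ∈ H)
    (j u : ℕ) (hu : u < M) (h : disp_i j u = true) : Good (fa g) T MG M (cP g H) Lt.i u := by
  unfold disp_i at h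
  rcases brec_true h with h | h
  · rcases brec_true h with h | h
    · exact lDef_good (T := T) (x := Lt.i) (by decide) rfl h
    · rcases brec_true h with h | h
      · exact lPar_good (T := T) (x := Lt.i) (x' := Lt.i) (by decide) rfl (inv_rel hinv _ _ rfl) h
      · exact lF1_good (T := T) (x := Lt.i) (by decide) .i (hole_rel hinv hr (by decide +kernel)) h
  · rcases brec_true h with h | h
    · exact lF3_good (T := T) (x := Lt.i) (by decide) .ui .i .u (hole_rel hinv hr (by decide +kernel)) h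
    · rcases brec_true h with h | h
      · rcases brec_true h with h | h
        · exact lF3_good (T := T) (x := Lt.i) (by decide) .u .i .ui (hole_rel hinv hr (by decide +kernel)) h
        · exact lF_good (T := T) (x := Lt.i) (by decide) [Lt.e, Lt.w, Lt.i, Lt.e] (hole_rel hinv hr (by decide +kernel)) h
      · exact dp_i_3_s hinv hr hH j u hu h
theorem snc_i (hinv : ∀ x, g (inv x) = (g x)⁻¹) (hr : ∀ r ∈ rels, (r.map g).prod = 1) (hH : ∀ r ∈ subs, (r.map g).prod ∈ H)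
    (j u : ℕ) (hu : u < M) (h : chk_i j u = true) : (T Lt.i u < A ∧ Good (fa g) T MG M (cP g H) Lt.i u) ∨ (A ≤ T Lt.i u ∧ MG u < A) := by
  unfold chk_i at h
  cases hb : Nat.ble A (T_i u) with
  | true => rw [hb] at h; exact Or.inr ⟨le_of_ble hb, le_of_ble h⟩
  | false => rw [hb] at h; exact Or.inl ⟨lt_of_ble_false hb, snd_i hinv hr hH j u hu h⟩
theorem dp_w_0_s (hinv : ∀ x, g (inv x) = (g x)⁻¹) (hr : ∀ r ∈ rels, (r.map g).prod = 1) (hH : ∀ r ∈ subs, (r.map g).prod ∈ H)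
    (j u : ℕ) (hu : u < M) (h : dp_w_0 j u = true) : Good (fa g) T MG M (cP g H) Lt.w u := by
  unfold dp_w_0 at h
  rcases brec_true h with h | h
  · exact lF_good (T := T) (x := Lt.w) (by decide) [Lt.b, Lt.i, Lt.b, Lt.i] (hole_rel hinv hr (by decide +kernel)) h
  · exact lF3_good (T := T) (x := Lt.w) (by decide) .u .w .ui (hole_rel hinv hr (by decide +kernel)) h
theorem dp_w_1_s (hinv : ∀ x, g (inv x) = (g x)⁻¹) (hr : ∀ r ∈ rels, (r.map g).prod = 1) (hH : ∀ r ∈ subs, (r.map g).prod ∈ H)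
    (j u : ℕ) (hu : u < M) (h : dp_w_1 j u = true) : Good (fa g) T MG M (cP g H) Lt.w u := by
  unfold dp_w_1 at h
  rcases brec_true h with h | h
  · exact lF_good (T := T) (x := Lt.w) (by decide) [Lt.d, Lt.b, Lt.d, Lt.b] (hole_rel hinv hr (by decide +kernel)) h
  · exact dp_w_0_s hinv hr hH j u hu h
theorem dp_w_2_s (hinv : ∀ x, g (inv x) = (g x)⁻¹) (hr : ∀ r ∈ rels, (r.map g).prod = 1) (hH : ∀ r ∈ subs, (r.map g).prod ∈ H)
    (j u : ℕ) (hu : u < M) (h : dp_w_2 j u = true) : Good (fa g) T MG M (cP g H) Lt.w u := by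
  unfold dp_w_2 at h
  rcases brec_true h with h | h
  · exact lF3_good (T := T) (x := Lt.w) (by decide) .b .w .b (hole_rel hinv hr (by decide +kernel)) h
  · exact dp_w_1_s hinv hr hH j u hu h
theorem dp_w_3_s (hinv : ∀ x, g (inv x) = (g x)⁻¹) (hr : ∀ r ∈ rels, (r.map g).prod = 1) (hH : ∀ r ∈ subs, (r.map g).prod ∈ H)
    (j u : ℕ) (hu : u < M) (h : dp_w_3 j u = true) : Good (fa g) T MG M (cP g H) Lt.w u := by
  unfold dp_w_3 at h
  rcases brec_true h with h | h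
  · exact lF3_good (T := T) (x := Lt.w) (by decide) .c .w .c (hole_rel hinv hr (by decide +kernel)) h
  · exact dp_w_2_s hinv hr hH j u hu h
theorem snd_w (hinv : ∀ x, g (inv x) = (g x)⁻¹) (hr : ∀ r ∈ rels, (r.map g).prod = 1) (hH : ∀ r ∈ subs, (r.map g).prod ∈ H)
    (j u : ℕ) (hu : u < M) (h : disp_w j u = true) : Good (fa g) T MG M (cP g H) Lt.w u := by
  unfold disp_w at h
  rcases brec_true h with h | h
  · rcases brec_true h with h | h
    · exact lF3_good (T := T) (x := Lt.w) (by decide) .i .w .i (hole_rel hinv hr (by decide +kernel)) h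
    · exact lF3_good (T := T) (x := Lt.w) (by decide) .h .w .h (hole_rel hinv hr (by decide +kernel)) h
  · rcases brec_true h with h | h
    · rcases brec_true h with h | h
      · exact lF3_good (T := T) (x := Lt.w) (by decide) .d .w .d (hole_rel hinv hr (by decide +kernel)) h
      · exact lF3_good (T := T) (x := Lt.w) (by decide) .e .w .e (hole_rel hinv hr (by decide +kernel)) h
    · rcases brec_true h with h | h
      · exact lF3_good (T := T) (x := Lt.w) (by decide) .f .w .f (hole_rel hinv hr (by decide +kernel)) h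
      · exact dp_w_3_s hinv hr hH j u hu h
theorem snc_w (hinv : ∀ x, g (inv x) = (g x)⁻¹) (hr : ∀ r ∈ rels, (r.map g).prod = 1) (hH : ∀ r ∈ subs, (r.map g).prod ∈ H)
    (j u : ℕ) (hu : u < M) (h : chk_w j u = true) : (T Lt.w u < A ∧ Good (fa g) T MG M (cP g H) Lt.w u) ∨ (A ≤ T Lt.w u ∧ MG u < A) := by
  unfold chk_w at h
  cases hb : Nat.ble A (T_w u) with
  | true => rw [hb] at h; exact Or.inr ⟨le_of_ble hb, le_of_ble h⟩
  | false => rw [hb] at h; exact Or.inl ⟨lt_of_ble_false hb, snd_w hinv hr hH j u hu h⟩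
theorem dp_u_0_s (hinv : ∀ x, g (inv x) = (g x)⁻¹) (hr : ∀ r ∈ rels, (r.map g).prod = 1) (hH : ∀ r ∈ subs, (r.map g).prod ∈ H)
    (j u : ℕ) (hu : u < M) (h : dp_u_0 j u = true) : Good (fa g) T MG M (cP g H) Lt.u u := by
  unfold dp_u_0 at h
  rcases brec_true h with h | h
  · exact lF3_good (T := T) (x := Lt.u) (by decide) .d .ui .d (hole_rel hinv hr (by decide +kernel)) h
  · exact lF3_good (T := T) (x := Lt.u) (by decide) .e .ui .e (hole_rel hinv hr (by decide +kernel)) h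
theorem dp_u_1_s (hinv : ∀ x, g (inv x) = (g x)⁻¹) (hr : ∀ r ∈ rels, (r.map g).prod = 1) (hH : ∀ r ∈ subs, (r.map g).prod ∈ H)
    (j u : ℕ) (hu : u < M) (h : dp_u_1 j u = true) : Good (fa g) T MG M (cP g H) Lt.u u := by
  unfold dp_u_1 at h
  rcases brec_true h with h | h
  · exact lF1_good (T := T) (x := Lt.u) (by decide) .ui (hole_rel hinv hr (by decide +kernel)) h
  · exact dp_u_0_s hinv hr hH j u hu h
theorem dp_u_2_s (hinv : ∀ x, g (inv x) = (g x)⁻¹) (hr : ∀ r ∈ rels, (r.map g).prod = 1) (hH : ∀ r ∈ subs, (r.map g).prod ∈ H)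
    (j u : ℕ) (hu : u < M) (h : dp_u_2 j u = true) : Good (fa g) T MG M (cP g H) Lt.u u := by
  unfold dp_u_2 at h
  rcases brec_true h with h | h
  · exact lF3_good (T := T) (x := Lt.u) (by decide) .c .ui .c (hole_rel hinv hr (by decide +kernel)) h
  · exact lF3_good (T := T) (x := Lt.u) (by decide) .h .ui .h (hole_rel hinv hr (by decide +kernel)) h
theorem dp_u_3_s (hinv : ∀ x, g (inv x) = (g x)⁻¹) (hr : ∀ r ∈ rels, (r.map g).prod = 1) (hH : ∀ r ∈ subs, (r.map g).prod ∈ H)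
    (j u : ℕ) (hu : u < M) (h : dp_u_3 j u = true) : Good (fa g) T MG M (cP g H) Lt.u u := by
  unfold dp_u_3 at h
  rcases brec_true h with h | h
  · exact lF3_good (T := T) (x := Lt.u) (by decide) .i .ui .i (hole_rel hinv hr (by decide +kernel)) h
  · exact lF_good (T := T) (x := Lt.u) (by decide) [Lt.u, Lt.u, Lt.u, Lt.u, Lt.u, Lt.u, Lt.u] (hole_rel hinv hr (by decide +kernel)) h
theorem dp_u_4_s (hinv : ∀ x, g (inv x) = (g x)⁻¹) (hr : ∀ r ∈ rels, (r.map g).prod = 1) (hH : ∀ r ∈ subs, (r.map g).prod ∈ H)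
    (j u : ℕ) (hu : u < M) (h : dp_u_4 j u = true) : Good (fa g) T MG M (cP g H) Lt.u u := by
  unfold dp_u_4 at h
  rcases brec_true h with h | h
  · exact lF3_good (T := T) (x := Lt.u) (by decide) .f .ui .f (hole_rel hinv hr (by decide +kernel)) h
  · exact dp_u_3_s hinv hr hH j u hu h
theorem dp_u_5_s (hinv : ∀ x, g (inv x) = (g x)⁻¹) (hr : ∀ r ∈ rels, (r.map g).prod = 1) (hH : ∀ r ∈ subs, (r.map g).prod ∈ H)
    (j u : ℕ) (hu : u < M) (h : dp_u_5 j u = true) : Good (fa g) T MG M (cP g H) Lt.u u := by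
  unfold dp_u_5 at h
  rcases brec_true h with h | h
  · exact lF3_good (T := T) (x := Lt.u) (by decide) .b .ui .b (hole_rel hinv hr (by decide +kernel)) h
  · exact dp_u_4_s hinv hr hH j u hu h
theorem dp_u_6_s (hinv : ∀ x, g (inv x) = (g x)⁻¹) (hr : ∀ r ∈ rels, (r.map g).prod = 1) (hH : ∀ r ∈ subs, (r.map g).prod ∈ H)
    (j u : ℕ) (hu : u < M) (h : dp_u_6 j u = true) : Good (fa g) T MG M (cP g H) Lt.u u := by
  unfold dp_u_6 at h
  rcases brec_true h with h | h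
  · exact dp_u_2_s hinv hr hH j u hu h
  · exact dp_u_5_s hinv hr hH j u hu h
theorem dp_u_7_s (hinv : ∀ x, g (inv x) = (g x)⁻¹) (hr : ∀ r ∈ rels, (r.map g).prod = 1) (hH : ∀ r ∈ subs, (r.map g).prod ∈ H)
    (j u : ℕ) (hu : u < M) (h : dp_u_7 j u = true) : Good (fa g) T MG M (cP g H) Lt.u u := by
  unfold dp_u_7 at h
  rcases brec_true h with h | h
  · exact dp_u_1_s hinv hr hH j u hu h
  · exact dp_u_6_s hinv hr hH j u hu h
theorem dp_u_8_s (hinv : ∀ x, g (inv x) = (g x)⁻¹) (hr : ∀ r ∈ rels, (r.map g).prod = 1) (hH : ∀ r ∈ subs, (r.map g).prod ∈ H)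
    (j u : ℕ) (hu : u < M) (h : dp_u_8 j u = true) : Good (fa g) T MG M (cP g H) Lt.u u := by
  unfold dp_u_8 at h
  rcases brec_true h with h | h
  · exact lPar_good (T := T) (x := Lt.u) (x' := Lt.ui) (by decide) rfl (inv_rel hinv _ _ rfl) h
  · exact dp_u_7_s hinv hr hH j u hu h
theorem snd_u (hinv : ∀ x, g (inv x) = (g x)⁻¹) (hr : ∀ r ∈ rels, (r.map g).prod = 1) (hH : ∀ r ∈ subs, (r.map g).prod ∈ H)
    (j u : ℕ) (hu : u < M) (h : disp_u j u = true) : Good (fa g) T MG M (cP g H) Lt.u u := by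
  unfold disp_u at h
  rcases brec_true h with h | h
  · exact lDef_good (T := T) (x := Lt.u) (by decide) rfl h
  · exact dp_u_8_s hinv hr hH j u hu h
theorem snc_u (hinv : ∀ x, g (inv x) = (g x)⁻¹) (hr : ∀ r ∈ rels, (r.map g).prod = 1) (hH : ∀ r ∈ subs, (r.map g).prod ∈ H)
    (j u : ℕ) (hu : u < M) (h : chk_u j u = true) : (T Lt.u u < A ∧ Good (fa g) T MG M (cP g H) Lt.u u) ∨ (A ≤ T Lt.u u ∧ MG u < A) := by
  unfold chk_u at h
  cases hb : Nat.ble A (T_u u) with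
  | true => rw [hb] at h; exact Or.inr ⟨le_of_ble hb, le_of_ble h⟩
  | false => rw [hb] at h; exact Or.inl ⟨lt_of_ble_false hb, snd_u hinv hr hH j u hu h⟩
theorem dp_ui_0_s (hinv : ∀ x, g (inv x) = (g x)⁻¹) (hr : ∀ r ∈ rels, (r.map g).prod = 1) (hH : ∀ r ∈ subs, (r.map g).prod ∈ H)
    (j u : ℕ) (hu : u < M) (h : dp_ui_0 j u = true) : Good (fa g) T MG M (cP g H) Lt.ui u := by
  unfold dp_ui_0 at h
  rcases brec_true h with h | h
  · exact lF3_good (T := T) (x := Lt.ui) (by decide) .d .u .d (hole_rel hinv hr (by decide +kernel)) h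
  · exact lF3_good (T := T) (x := Lt.ui) (by decide) .c .u .c (hole_rel hinv hr (by decide +kernel)) h
theorem dp_ui_1_s (hinv : ∀ x, g (inv x) = (g x)⁻¹) (hr : ∀ r ∈ rels, (r.map g).prod = 1) (hH : ∀ r ∈ subs, (r.map g).prod ∈ H)
    (j u : ℕ) (hu : u < M) (h : dp_ui_1 j u = true) : Good (fa g) T MG M (cP g H) Lt.ui u := by
  unfold dp_ui_1 at h
  rcases brec_true h with h | h
  · exact lF1_good (T := T) (x := Lt.ui) (by decide) .u (hole_rel hinv hr (by decide +kernel)) h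
  · exact dp_ui_0_s hinv hr hH j u hu h
theorem dp_ui_2_s (hinv : ∀ x, g (inv x) = (g x)⁻¹) (hr : ∀ r ∈ rels, (r.map g).prod = 1) (hH : ∀ r ∈ subs, (r.map g).prod ∈ H)
    (j u : ℕ) (hu : u < M) (h : dp_ui_2 j u = true) : Good (fa g) T MG M (cP g H) Lt.ui u := by
  unfold dp_ui_2 at h
  rcases brec_true h with h | h
  · exact lF3_good (T := T) (x := Lt.ui) (by decide) .b .u .b (hole_rel hinv hr (by decide +kernel)) h
  · exact lF3_good (T := T) (x := Lt.ui) (by decide) .f .u .f (hole_rel hinv hr (by decide +kernel)) h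
theorem dp_ui_3_s (hinv : ∀ x, g (inv x) = (g x)⁻¹) (hr : ∀ r ∈ rels, (r.map g).prod = 1) (hH : ∀ r ∈ subs, (r.map g).prod ∈ H)
    (j u : ℕ) (hu : u < M) (h : dp_ui_3 j u = true) : Good (fa g) T MG M (cP g H) Lt.ui u := by
  unfold dp_ui_3 at h
  rcases brec_true h with h | h
  · exact lF3_good (T := T) (x := Lt.ui) (by decide) .h .u .h (hole_rel hinv hr (by decide +kernel)) h
  · exact lF3_good (T := T) (x := Lt.ui) (by decide) .i .u .i (hole_rel hinv hr (by decide +kernel)) h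
theorem dp_ui_4_s (hinv : ∀ x, g (inv x) = (g x)⁻¹) (hr : ∀ r ∈ rels, (r.map g).prod = 1) (hH : ∀ r ∈ subs, (r.map g).prod ∈ H)
    (j u : ℕ) (hu : u < M) (h : dp_ui_4 j u = true) : Good (fa g) T MG M (cP g H) Lt.ui u := by
  unfold dp_ui_4 at h
  rcases brec_true h with h | h
  · exact lF3_good (T := T) (x := Lt.ui) (by decide) .e .u .e (hole_rel hinv hr (by decide +kernel)) h
  · exact dp_ui_3_s hinv hr hH j u hu h
theorem dp_ui_5_s (hinv : ∀ x, g (inv x) = (g x)⁻¹) (hr : ∀ r ∈ rels, (r.map g).prod = 1) (hH : ∀ r ∈ subs, (r.map g).prod ∈ H)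
    (j u : ℕ) (hu : u < M) (h : dp_ui_5 j u = true) : Good (fa g) T MG M (cP g H) Lt.ui u := by
  unfold dp_ui_5 at h
  rcases brec_true h with h | h
  · exact dp_ui_2_s hinv hr hH j u hu h
  · exact dp_ui_4_s hinv hr hH j u hu h
theorem dp_ui_6_s (hinv : ∀ x, g (inv x) = (g x)⁻¹) (hr : ∀ r ∈ rels, (r.map g).prod = 1) (hH : ∀ r ∈ subs, (r.map g).prod ∈ H)
    (j u : ℕ) (hu : u < M) (h : dp_ui_6 j u = true) : Good (fa g) T MG M (cP g H) Lt.ui u := by
  unfold dp_ui_6 at h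
  rcases brec_true h with h | h
  · exact dp_ui_1_s hinv hr hH j u hu h
  · exact dp_ui_5_s hinv hr hH j u hu h
theorem dp_ui_7_s (hinv : ∀ x, g (inv x) = (g x)⁻¹) (hr : ∀ r ∈ rels, (r.map g).prod = 1) (hH : ∀ r ∈ subs, (r.map g).prod ∈ H)
    (j u : ℕ) (hu : u < M) (h : dp_ui_7 j u = true) : Good (fa g) T MG M (cP g H) Lt.ui u := by
  unfold dp_ui_7 at h
  rcases brec_true h with h | h
  · exact lDef_good (T := T) (x := Lt.ui) (by decide) rfl h
  · exact dp_ui_6_s hinv hr hH j u hu h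
theorem snd_ui (hinv : ∀ x, g (inv x) = (g x)⁻¹) (hr : ∀ r ∈ rels, (r.map g).prod = 1) (hH : ∀ r ∈ subs, (r.map g).prod ∈ H)
    (j u : ℕ) (hu : u < M) (h : disp_ui j u = true) : Good (fa g) T MG M (cP g H) Lt.ui u := by
  unfold disp_ui at h
  rcases brec_true h with h | h
  · exact lPar_good (T := T) (x := Lt.ui) (x' := Lt.u) (by decide) rfl (inv_rel hinv _ _ rfl) h
  · exact dp_ui_7_s hinv hr hH j u hu h
theorem snc_ui (hinv : ∀ x, g (inv x) = (g x)⁻¹) (hr : ∀ r ∈ rels, (r.map g).prod = 1) (hH : ∀ r ∈ subs, (r.map g).prod ∈ H)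
    (j u : ℕ) (hu : u < M) (h : chk_ui j u = true) : (T Lt.ui u < A ∧ Good (fa g) T MG M (cP g H) Lt.ui u) ∨ (A ≤ T Lt.ui u ∧ MG u < A) := by
  unfold chk_ui at h
  cases hb : Nat.ble A (T_ui u) with
  | true => rw [hb] at h; exact Or.inr ⟨le_of_ble hb, le_of_ble h⟩
  | false => rw [hb] at h; exact Or.inl ⟨lt_of_ble_false hb, snd_ui hinv hr hH j u hu h⟩
theorem dM_0_s (hinv : ∀ x, g (inv x) = (g x)⁻¹) (hr : ∀ r ∈ rels, (r.map g).prod = 1) (j z1 z2 u : ℕ) (h : dM_0 j z1 z2 u = true) : GoodM (fa g) T MG M (cP g H) u := by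
  unfold dM_0 at h
  rcases brec_true h with h | h
  · rcases brec_true h with h | h
    · exact mCo_good (T := T) (y := .u) (by decide) h
    · rcases brec_true h with h | h
      · exact mCo_good (T := T) (y := .ui) (by decide) h
      · exact mCo_good (T := T) (y := .d) (by decide) h
  · rcases brec_true h with h | h
    · rcases brec_true h with h | h
      · exact mCo_good (T := T) (y := .i) (by decide) h
      · rcases brec_true h with h | h
        · exact mCo_good (T := T) (y := .h) (by decide) h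
        · exact mCo_good (T := T) (y := .e) (by decide) h
    · rcases brec_true h with h | h
      · exact mCo_good (T := T) (y := .b) (by decide) h
      · rcases brec_true h with h | h
        · exact mCo_good (T := T) (y := .c) (by decide) h
        · rcases brec_true h with h | h
          · exact mCo_good (T := T) (y := .f) (by decide) h
          · exact mRel_good (T := T) (by decide) [Lt.h, Lt.i, Lt.d, Lt.c, Lt.b, Lt.d, Lt.e, Lt.f, Lt.d, Lt.h, Lt.i, Lt.d, Lt.c, Lt.b, Lt.d, Lt.e, Lt.f, Lt.d, Lt.h, Lt.i, Lt.d, Lt.c, Lt.b, Lt.d, Lt.e, Lt.f, Lt.d, Lt.h, Lt.i, Lt.ui, Lt.d, Lt.c, Lt.b, Lt.d, Lt.e, Lt.f, Lt.d, Lt.h, Lt.i, Lt.d, Lt.c, Lt.b, Lt.d, Lt.e, Lt.f, Lt.d, Lt.h, Lt.i, Lt.d, Lt.c, Lt.b, Lt.d, Lt.e, Lt.f, Lt.d, Lt.h, Lt.i, Lt.d, Lt.c, Lt.b, Lt.d, Lt.e, Lt.f, Lt.d, Lt.h, Lt.i, Lt.d, Lt.c, Lt.b, Lt.d, Lt.e, Lt.f, Lt.d, Lt.h, Lt.i, Lt.d, Lt.c, Lt.b, Lt.d, Lt.e, Lt.f, Lt.d, Lt.h, Lt.i, Lt.d, Lt.c, Lt.b, Lt.d,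 Lt.e, Lt.f] [Lt.d] (pair_rel hinv hr (by decide +kernel)) h
theorem sndM (hinv : ∀ x, g (inv x) = (g x)⁻¹) (hr : ∀ r ∈ rels, (r.map g).prod = 1) (u : ℕ) (h : chkM u = true) :
    MG u < A → MG u % M < u ∧ GoodM (fa g) T MG M (cP g H) u := by
  intro hA
  unfold chkM at h
  cases hb : Nat.ble A (MG u) with
  | true => exact absurd (le_of_ble hb) (by omega)
  | false =>
    rw [hb] at h
    obtain ⟨h1, h2⟩ := band_eq_true.1 h
    exact ⟨le_of_ble h1, dM_0_s hinv hr _ _ _ _ h2⟩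
theorem sndN (hinv : ∀ x, g (inv x) = (g x)⁻¹) (hr : ∀ r ∈ rels, (r.map g).prod = 1) (hH : ∀ r ∈ subs, (r.map g).prod ∈ H)
    (u : ℕ) (hu : u < M) (h : chkP u = true) : (∀ x, (T x u < A ∧ Good (fa g) T MG M (cP g H) x u) ∨ (A ≤ T x u ∧ MG u < A)) ∧ (MG u < A → MG u % M < u ∧ GoodM (fa g) T MG M (cP g H) u) := by
  unfold chkP at h
  cases hb : Nat.ble M u with
  | true => exact absurd (le_of_ble hb) (by omega)
  | false =>
    rw [hb] at h
    change chkN u = true at h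
    unfold chkN at h
    obtain ⟨h0, h⟩ := band_eq_true.1 h
    obtain ⟨h1, h⟩ := band_eq_true.1 h
    obtain ⟨h2, h⟩ := band_eq_true.1 h
    obtain ⟨h3, h⟩ := band_eq_true.1 h
    obtain ⟨h4, h⟩ := band_eq_true.1 h
    obtain ⟨h5, h⟩ := band_eq_true.1 h
    obtain ⟨h6, h⟩ := band_eq_true.1 h
    obtain ⟨h7, h⟩ := band_eq_true.1 h
    obtain ⟨h8, h⟩ := band_eq_true.1 h
    obtain ⟨h9, h⟩ := band_eq_true.1 h
    refine ⟨?_, sndM hinv hr u h⟩
    intro x
    cases x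
    · exact snc_b hinv hr hH _ u hu h0
    · exact snc_c hinv hr hH _ u hu h1
    · exact snc_d hinv hr hH _ u hu h2
    · exact snc_e hinv hr hH _ u hu h3
    · exact snc_f hinv hr hH _ u hu h4
    · exact snc_h hinv hr hH _ u hu h5
    · exact snc_i hinv hr hH _ u hu h6
    · exact snc_w hinv hr hH _ u hu h7
    · exact snc_u hinv hr hH _ u hu h8
    · exact snc_ui hinv hr hH _ u hu h9
theorem final (hinv : ∀ x, g (inv x) = (g x)⁻¹) (hr : ∀ r ∈ rels, (r.map g).prod = 1) (hH : ∀ r ∈ subs, (r.map g).prod ∈ H)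
    (hall : ∀ u, u < M → chkP u = true) (hc : cntB liveP 13 0 = 243) :
    H.relIndex (Subgroup.closure (Set.range g)) ≤ 243 ∧ H.relIndex (Subgroup.closure (Set.range g)) ≠ 0 := by
  have hn := fun u hu => sndN hinv hr hH u hu (hall u hu)
  have h1 : ∀ x u, u < M → T x u < A → Good (fa g) T MG M (cP g H) x u := by
    intro x u hu hx
    rcases (hn u hu).1 x with h | h
    · exact h.2
    · exact absurd h.1 (by omega)
  have h2 : ∀ u, u < M → MG u < A → GoodM (fa g) T MG M (cP g H) u := fun u hu h => ((hn u hu).2 h).2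
  refine relIndex_le (M := M) (A := A) (T := T) (MG := MG) (c := cP g H) (by decide) cc_zero (sound_of_good h1 h2) ?_ ?_ ?_
  · intro u hu h
    exact ((hn u hu).2 h).1
  · intro x u hu h
    rcases (hn u hu).1 x with h' | h'
    · exact h'.1
    · exact absurd h'.2 (by omega)
  · rw [← hc, ← cntB_spec]
    apply Finset.card_le_card
    intro u
    simp only [Finset.mem_filter, Finset.mem_Ico]
    rintro ⟨⟨_, h3⟩, h4⟩
    refine ⟨⟨Nat.zero_le _, lt_of_lt_of_le h3 (by decide)⟩, ?_⟩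
    unfold liveP
    cases hb : Nat.ble M u with
    | true => exact absurd (le_of_ble hb) (by omega)
    | false => exact h4
end
end H34.TCO7D
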